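import Cfsg.Agent.Lib.Helper77.Asch.Defs

/-! Ladder ASCH9 (S5829), rung PR8: `SL_n` is not inside a tensor wreath subgroup
(`m ≥ 2` the dimension of the factors, `t ≥ 2` their number). -/

set_option autoImplicit false

namespace Cfsg.Agent.Lib.Helper59.Asch9

open Cfsg Cfsg.Geo
open scoped MatrixGroups Matrix

variable {F : Type*} [Field F]

/-- pure tensors among the vectors of the tensor power. -/
def IsPureVec (m t : ℕ) (v : (Fin t → Fin m) → F) : Prop :=
  ∃ vs : Fin t → Fin m → F, ∀ x, v x = ∏ i, vs i (x i)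

theorem pr8_pure_mulVec {m t : ℕ} (g : Matrix (Fin t → Fin m) (Fin t → Fin m) F)
    (gs : Fin t → Matrix (Fin m) (Fin m) F) (hg : ∀ x y, g x y = ∏ i, gs i (x i) (y i))
    (vs : Fin t → Fin m → F) (v : (Fin t → Fin m) → F) (hv : ∀ x, v x = ∏ i, vs i (x i)) :
    ∀ x, (g *ᵥ v) x = ∏ i, (gs i *ᵥ vs i) (x i) := by
  intro x
  simp only [Matrix.mulVec, dotProduct, hg, hv]
  rw [Finset.prod_univ_sum]
  simp [Fintype.piFinset_univ, Finset.prod_mul_distrib]

theorem pr8_perm_mulVec {m t : ℕ} (g : Matrix (Fin t → Fin m) (Fin t → Fin m) F)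
    (σ : Equiv.Perm (Fin t)) (hg : ∀ x y, g x y = if y = x ∘ σ then 1 else 0)
    (v : (Fin t → Fin m) → F) : ∀ x, (g *ᵥ v) x = v (x ∘ σ) := by
  intro x
  simp only [Matrix.mulVec, dotProduct, hg]
  simp

theorem pr8_pure_comp {m t : ℕ} (σ : Equiv.Perm (Fin t)) (v : (Fin t → Fin m) → F)
    (hv : IsPureVec m t v) : IsPureVec m t (fun x => v (x ∘ σ)) := by
  obtain ⟨vs, hvs⟩ := hv
  refine ⟨fun j => vs (σ.symm j), fun x => ?_⟩
  show v (x ∘ σ) = ∏ i, vs (σ.symm i) (x i)
  rw [hvs]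
  simp only [Function.comp]
  rw [← Equiv.prod_comp σ (fun j => vs (σ.symm j) (x j))]
  simp

/-- the property propagated through the closure. -/
def PresPure (m t : ℕ) (g : GL (Fin t → Fin m) F) : Prop :=
  (∀ v, IsPureVec m t v → IsPureVec m t ((g : Matrix (Fin t → Fin m) (Fin t → Fin m) F) *ᵥ v)) ∧
  (∀ v, IsPureVec m t v →
    IsPureVec m t (((g⁻¹ : GL (Fin t → Fin m) F) : Matrix (Fin t → Fin m) (Fin t → Fin m) F) *ᵥ v))

theorem pr8_inv_mulVec {ι : Type*} [Fintype ι] [DecidableEq ι] (g : GL ι F) (u v : ι → F)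
    (h : (g : Matrix ι ι F) *ᵥ u = v) : ((g⁻¹ : GL ι F) : Matrix ι ι F) *ᵥ v = u := by
  rw [← h, Matrix.mulVec_mulVec, ← Units.val_mul, inv_mul_cancel, Units.val_one, Matrix.one_mulVec]

theorem pr8_gen {m t : ℕ} (g : GL (Fin t → Fin m) F)
    (hg : IsPureTensor m t g ∨ IsFactorPermutation m t g) : PresPure m t g := by
  rcases hg with ⟨gs, hgs⟩ | ⟨σ, hσ⟩
  · constructor
    · rintro v ⟨vs, hvs⟩
      exact ⟨fun i => (gs i : Matrix (Fin m) (Fin m) F) *ᵥ vs i,
        pr8_pure_mulVec _ (fun i => (gs i : Matrix (Fin m) (Fin m) F)) hgs vs v hvs⟩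
    · rintro v ⟨vs, hvs⟩
      have h1 : (g : Matrix (Fin t → Fin m) (Fin t → Fin m) F) *ᵥ
          (fun x => ∏ i, (((gs i)⁻¹ : GL (Fin m) F) : Matrix (Fin m) (Fin m) F).mulVec (vs i) (x i)) = v := by
        funext x
        rw [pr8_pure_mulVec _ (fun i => (gs i : Matrix (Fin m) (Fin m) F)) hgs
          (fun i => (((gs i)⁻¹ : GL (Fin m) F) : Matrix (Fin m) (Fin m) F).mulVec (vs i)) _ (fun _ => rfl), hvs]
        refine Finset.prod_congr rfl fun i _ => ?_
        rw [Matrix.mulVec_mulVec, ← Units.val_mul, mul_inv_cancel, Units.val_one, Matrix.one_mulVec]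
      rw [pr8_inv_mulVec g _ v h1]
      exact ⟨_, fun _ => rfl⟩
  · constructor
    · intro v hv
      have : (g : Matrix (Fin t → Fin m) (Fin t → Fin m) F) *ᵥ v = fun x => v (x ∘ σ) :=
        funext (pr8_perm_mulVec _ σ hσ v)
      rw [this]
      exact pr8_pure_comp σ v hv
    · intro v hv
      have h1 : (g : Matrix (Fin t → Fin m) (Fin t → Fin m) F) *ᵥ (fun x => v (x ∘ σ.symm)) = v := by
        funext x
        rw [pr8_perm_mulVec _ σ hσ]
        congr 1
        funext i
        simp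
      rw [pr8_inv_mulVec g _ v h1]
      exact pr8_pure_comp σ.symm v hv

theorem pr8_std {m t : ℕ} (g : GL (Fin t → Fin m) F) (hg : g ∈ tensorWreathStandard m t F) :
    PresPure m t g := by
  unfold tensorWreathStandard at hg
  induction hg using Subgroup.closure_induction with
  | mem x hx => exact pr8_gen x hx
  | one => exact ⟨fun v hv => by simpa using hv, fun v hv => by simpa using hv⟩
  | mul x y _ _ hx hy =>
    constructor
    · intro v hv
      rw [Units.val_mul, ← Matrix.mulVec_mulVec]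
      exact hx.1 _ (hy.1 _ hv)
    · intro v hv
      rw [mul_inv_rev, Units.val_mul, ← Matrix.mulVec_mulVec]
      exact hy.2 _ (hx.2 _ hv)
  | inv x _ hx => exact ⟨hx.2, by rw [inv_inv]; exact hx.1⟩

theorem pr8_swap {m t : ℕ} (ws : Fin t → Fin m → F) (x y : Fin t → Fin m) (i0 : Fin t) :
    (∏ i, ws i (Function.update x i0 (y i0) i)) * (∏ i, ws i (Function.update y i0 (x i0) i)) =
      (∏ i, ws i (x i)) * (∏ i, ws i (y i)) := by
  rw [← Finset.prod_mul_distrib, ← Finset.prod_mul_distrib]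
  refine Finset.prod_congr rfl fun i _ => ?_
  by_cases h : i = i0
  · subst h; simp [mul_comm]
  · simp [Function.update_of_ne h]

theorem pr8_single_pure {m t : ℕ} (y : Fin t → Fin m) :
    IsPureVec m t (Pi.single y (1 : F)) := by
  refine ⟨fun i => Pi.single (y i) 1, fun x => ?_⟩
  simp only [Pi.single_apply]
  rw [Finset.prod_ite_zero]
  simp [funext_iff]

theorem pr8_not_std {m t : ℕ} (hm : 2 ≤ m) (ht : 2 ≤ t) :
    ∃ τ : GL (Fin t → Fin m) F, (τ : Matrix (Fin t → Fin m) (Fin t → Fin m) F).det = 1 ∧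
      τ ∉ tensorWreathStandard m t F := by
  classical
  let x0 : Fin t → Fin m := fun _ => ⟨0, by omega⟩
  let y0 : Fin t → Fin m := fun _ => ⟨1, by omega⟩
  let i0 : Fin t := ⟨0, by omega⟩
  let i1 : Fin t := ⟨1, by omega⟩
  have h01 : i1 ≠ i0 := by simp [i0, i1, Fin.ext_iff]
  have hxy : x0 ≠ y0 := fun h => by
    have := congrFun h i0
    simp [x0, y0, Fin.ext_iff] at this
  have hdet : (Matrix.transvection x0 y0 (1 : F)).det = 1 := Matrix.det_transvection_of_ne x0 y0 hxy 1
  refine ⟨Matrix.GeneralLinearGroup.mkOfDetNeZero (Matrix.transvection x0 y0 (1 : F))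
    (by rw [hdet]; exact one_ne_zero), hdet, fun hmem => ?_⟩
  obtain ⟨ws, hws⟩ := (pr8_std _ hmem).1 _ (pr8_single_pure (F := F) y0)
  have hval : ∀ x, ((Matrix.transvection x0 y0 (1 : F)) *ᵥ (Pi.single y0 (1 : F))) x =
      (if x = y0 then 1 else 0) + (if x = x0 then 1 else 0) := by
    intro x
    rw [Matrix.transvection, Matrix.add_mulVec, Matrix.one_mulVec, Pi.add_apply, Pi.single_apply]
    congr 1
    rw [Matrix.mulVec_single_one]
    simp [Matrix.col, Matrix.single_apply, eq_comm]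
  have hws' : ∀ x, (if x = y0 then (1 : F) else 0) + (if x = x0 then 1 else 0) = ∏ i, ws i (x i) :=
    fun x => by rw [← hval]; exact hws x
  have hsw := pr8_swap ws x0 y0 i0
  rw [← hws', ← hws', ← hws', ← hws'] at hsw
  have hz1 : Function.update x0 i0 (y0 i0) ≠ y0 := fun h => by
    have := congrFun h i1
    rw [Function.update_of_ne h01] at this
    simp [x0, y0, Fin.ext_iff] at this
  have hz2 : Function.update x0 i0 (y0 i0) ≠ x0 := fun h => by
    have := congrFun h i0
    rw [Function.update_self] at this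
    simp [x0, y0, Fin.ext_iff] at this
  rw [if_neg hz1, if_neg hz2, if_neg hxy, if_pos rfl, if_pos rfl, if_neg hxy.symm] at hsw
  simp at hsw

theorem not_le_tensorWreath {n m t : ℕ} (hm : 2 ≤ m) (ht : 2 ≤ t) (e : Fin n ≃ (Fin t → Fin m))
    (P : GL (Fin n) F) : ¬ specialLinear (Fin n) F ≤ tensorWreathSubgroup m t e P := by
  intro hle
  obtain ⟨τ, hdet, hτ⟩ := pr8_not_std (F := F) hm ht
  have hmem : P * glReindex e.symm τ * P⁻¹ ∈ specialLinear (Fin n) F := by
    rw [specialLinear, MonoidHom.mem_ker, map_mul, map_mul, map_inv, mul_comm, ← mul_assoc, inv_mul_cancel,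
      one_mul]
    apply Units.ext
    rw [Matrix.GeneralLinearGroup.val_det_apply, Units.val_one, ← hdet]
    exact Matrix.det_reindexAlgEquiv F F e.symm _
  obtain ⟨k', ⟨k, hk, rfl⟩, hk'⟩ := hle hmem
  have h1 : glReindex e.symm k = glReindex (F := F) e.symm τ := by
    have : P * glReindex e.symm k * P⁻¹ = P * glReindex e.symm τ * P⁻¹ := hk'
    exact mul_left_cancel (mul_right_cancel this)
  exact hτ ((glReindex (F := F) e.symm).injective h1 ▸ hk)

end Cfsg.Agent.Lib.Helper59.Asch9
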