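import Cfsg.Agent.Lib.Helper77.Asch.Defs

/-! Ladder ASCH9 (S5829), rung C6R: the prime `r` of a class-6 datum in dimension `n` divides `n`. -/

set_option autoImplicit false

namespace Cfsg.Agent.Lib.Helper59.Asch9

open Cfsg Cfsg.Geo
open scoped MatrixGroups Matrix LinearAlgebra.Projectivization

variable {n : ℕ} {F : Type*} [Field F]

theorem c6r_dvd_of_sum (q r n : ℕ) (hq : 1 ≤ q) (h : r ∣ q - 1)
    (hs : r ∣ ∑ i ∈ Finset.range n, q ^ i) : r ∣ n := by
  have h1 : (q : ZMod r) = 1 := by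
    have := (ZMod.natCast_eq_zero_iff (q - 1) r).2 h
    rw [Nat.cast_sub hq, Nat.cast_one, sub_eq_zero] at this
    exact this
  have h2 := (ZMod.natCast_eq_zero_iff _ r).2 hs
  rw [Nat.cast_sum] at h2
  simp only [Nat.cast_pow, h1, one_pow, Finset.sum_const, Finset.card_range, nsmul_eq_mul, mul_one] at h2
  exact (ZMod.natCast_eq_zero_iff n r).1 h2

/-- an `r`-subgroup of `GL_n(q)`, `r ∣ q - 1`, `r ∤ n`, has a common eigenvector. -/
theorem pgroup_fixes_line [Fintype F] (r : ℕ) (hr : r.Prime) (hrq : r ∣ Fintype.card F - 1) (hnd : ¬ r ∣ n)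
    (R : Subgroup (GL (Fin n) F)) (hR : IsPGroup r R) :
    ∃ v : Fin n → F, v ≠ 0 ∧ ∀ g ∈ R, ∃ a : F, (g : Matrix (Fin n) (Fin n) F) *ᵥ v = a • v := by
  haveI : Fact r.Prime := ⟨hr⟩
  let φ : GL (Fin n) F →* LinearMap.GeneralLinearGroup F (Fin n → F) :=
    (Matrix.GeneralLinearGroup.toLin : GL (Fin n) F ≃* _).toMonoidHom
  have hR' : IsPGroup r (R.map φ) := hR.map φ
  have hcard : ¬ r ∣ Nat.card (ℙ F (Fin n → F)) := by
    rw [Projectivization.card_of_finrank (k := F) (V := Fin n → F) (n := n) (by simp)]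
    intro hs
    exact hnd (c6r_dvd_of_sum (Nat.card F) r n Nat.card_pos
      (by rw [Nat.card_eq_fintype_card]; exact hrq) hs)
  haveI : Finite (ℙ F (Fin n → F)) := inferInstance
  obtain ⟨x, hx⟩ := hR'.nonempty_fixed_point_of_prime_not_dvd_card (ℙ F (Fin n → F)) hcard
  induction x using Projectivization.ind with
  | h v hv =>
    refine ⟨v, hv, fun g hg => ?_⟩
    have h1 := hx ⟨φ g, Subgroup.mem_map_of_mem φ hg⟩
    have h2 : (φ g) • Projectivization.mk F v hv = Projectivization.mk F v hv := h1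
    rw [Projectivization.smul_mk, Projectivization.mk_eq_mk_iff] at h2
    obtain ⟨a, ha⟩ := h2
    refine ⟨(a : F), ?_⟩
    have h3 : (φ g) • v = (g : Matrix (Fin n) (Fin n) F) *ᵥ v := rfl
    rw [← h3, ← ha]
    rfl

theorem c6_dvd [Fintype F] (hn : 2 ≤ n) (r : ℕ) (R : Subgroup (GL (Fin n) F))
    (hR : IsLinearSymplecticTypeData r R) : r ∣ n := by
  by_contra hnd
  obtain ⟨p, e, hrp, ⟨hp, hch, hcard, hdvd, hmin⟩, hcase⟩ := hR.field
  have hrq : r ∣ Fintype.card F - 1 := by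
    rw [hcard]
    rcases hcase with ⟨-, -, hz, -⟩ | ⟨h2, -, hz, -⟩ | ⟨h2, -, -, -, hz, -⟩
    · rwa [hz] at hdvd
    · rw [hz] at hdvd; subst h2; exact (by norm_num : 2 ∣ 4).trans hdvd
    · rw [hz] at hdvd; subst h2; exact hdvd
  obtain ⟨v, hv, hfix⟩ := pgroup_fixes_line r hR.symplecticType.prime hrq hnd R hR.symplecticType.pGroup
  rcases hR.absIrred.1 (Submodule.span F {v}) (by
    rintro s ⟨g, hg, rfl⟩
    rw [Submodule.map_span_le]
    intro w hw
    rw [Set.mem_singleton_iff] at hw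
    subst hw
    obtain ⟨a, ha⟩ := hfix g hg
    rw [Matrix.toLin'_apply, ha]
    exact Submodule.smul_mem _ _ (Submodule.mem_span_singleton_self _)) with h | h
  · exact hv ((Submodule.span_singleton_eq_bot).1 h)
  · have h1 : Module.finrank F (Submodule.span F {v}) = 1 := finrank_span_singleton hv
    rw [h, finrank_top, Module.finrank_fintype_fun_eq_card, Fintype.card_fin] at h1
    omega

end Cfsg.Agent.Lib.Helper59.Asch9
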