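import Cfsg.Agent.Lib.Helper77.Asch.Defs
import Cfsg.Agent.Lib.Helper47.SLn

/-! Ladder ASCH9 (S5829), rung HPROP: a maximal subgroup of `SL_n`, `n ≥ 3`, does not cover `PSL_n`. -/

set_option autoImplicit false

namespace Cfsg.Agent.Lib.Helper59.Asch9

open Cfsg Cfsg.Geo
open scoped MatrixGroups Matrix

variable {n : ℕ} {F : Type*} [Field F]

theorem hprop_mem_sl (A : Matrix.SpecialLinearGroup (Fin n) F) :
    (Matrix.SpecialLinearGroup.toGL A : GL (Fin n) F) ∈ specialLinear (Fin n) F := by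
  rw [specialLinear, MonoidHom.mem_ker]
  apply Units.ext
  rw [Matrix.GeneralLinearGroup.val_det_apply]
  simp

theorem hprop_exists (g : GL (Fin n) F) (hg : g ∈ specialLinear (Fin n) F) :
    ∃ A : Matrix.SpecialLinearGroup (Fin n) F, Matrix.SpecialLinearGroup.toGL A = g := by
  rw [specialLinear, MonoidHom.mem_ker] at hg
  have h1 : (g : Matrix (Fin n) (Fin n) F).det = 1 := by
    have := congrArg Units.val hg
    rwa [Matrix.GeneralLinearGroup.val_det_apply] at this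
  exact ⟨⟨g, h1⟩, Units.ext rfl⟩

/-- `SL_n` (inside `GL_n`) lies in every subgroup containing all its commutators. -/
theorem hprop_perfect (h3 : 3 ≤ n) (K : Subgroup (GL (Fin n) F))
    (hK : ∀ x ∈ specialLinear (Fin n) F, ∀ y ∈ specialLinear (Fin n) F, x * y * x⁻¹ * y⁻¹ ∈ K) :
    specialLinear (Fin n) F ≤ K := by
  intro g hg
  obtain ⟨A, rfl⟩ := hprop_exists g hg
  have hA : A ∈ commutator (Matrix.SpecialLinearGroup (Fin n) F) := by
    rw [Cfsg.Agent.Lib.Helper47.commutator_SL_eq_top (by simpa using h3)]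
    trivial
  have hle : commutator (Matrix.SpecialLinearGroup (Fin n) F) ≤
      K.comap (Matrix.SpecialLinearGroup.toGL : Matrix.SpecialLinearGroup (Fin n) F →* GL (Fin n) F) := by
    rw [commutator_def, Subgroup.commutator_le]
    intro x _ y _
    rw [Subgroup.mem_comap, commutatorElement_def, map_mul, map_mul, map_mul, map_inv, map_inv]
    exact hK _ (hprop_mem_sl x) _ (hprop_mem_sl y)
  exact hle hA

theorem hprop_comm {G : Type*} [Group G] (H Z : Subgroup G) (hZ : ∀ z ∈ Z, ∀ g : G, z * g = g * z)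
    (x y : G) (hx : x ∈ H ⊔ Z) (hy : y ∈ H ⊔ Z) : x * y * x⁻¹ * y⁻¹ ∈ H := by
  haveI : Z.Normal := ⟨fun k hk g => by rw [← hZ k hk g, mul_inv_cancel_right]; exact hk⟩
  obtain ⟨h, hh, z, hz, hx'⟩ := Subgroup.mem_sup_of_normal_right.1 hx
  obtain ⟨k, hk, w, hw, hy'⟩ := Subgroup.mem_sup_of_normal_right.1 hy
  have : x * y * x⁻¹ * y⁻¹ = h * k * h⁻¹ * k⁻¹ := by
    rw [← hx', ← hy']
    have e4 : w * h⁻¹ = h⁻¹ * w := hZ w hw _
    calc h * z * (k * w) * (h * z)⁻¹ * (k * w)⁻¹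
        = h * (z * k) * (w * z⁻¹) * h⁻¹ * (w⁻¹ * k⁻¹) := by group
      _ = h * (k * z) * (z⁻¹ * w) * h⁻¹ * (w⁻¹ * k⁻¹) := by rw [hZ z hz k, hZ w hw z⁻¹]
      _ = h * k * (w * h⁻¹) * (w⁻¹ * k⁻¹) := by group
      _ = h * k * (h⁻¹ * w) * (w⁻¹ * k⁻¹) := by rw [e4]
      _ = h * k * h⁻¹ * k⁻¹ := by group
  rw [this]
  exact H.mul_mem (H.mul_mem (H.mul_mem hh hk) (H.inv_mem hh)) (H.inv_mem hk)

theorem hprop (h3 : 3 ≤ n) (H : Subgroup (GL (Fin n) F))
    (hH : IsMaximalIn (specialLinear (Fin n) F) H) :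
    H ⊔ (scalars (Fin n) F ⊓ specialLinear (Fin n) F) ≠ specialLinear (Fin n) F := by
  intro heq
  have hcen : ∀ z ∈ scalars (Fin n) F ⊓ specialLinear (Fin n) F, ∀ g : GL (Fin n) F, z * g = g * z := by
    intro z hz g
    obtain ⟨c, hc⟩ := (mem_scalars_iff z).1 hz.1
    apply Units.ext
    rw [Units.val_mul, Units.val_mul, hc]
    simp
  have hle : specialLinear (Fin n) F ≤ H := by
    apply hprop_perfect h3
    intro x hx y hy
    exact hprop_comm H _ hcen x y (by rw [heq]; exact hx) (by rw [heq]; exact hy)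
  exact absurd hle (not_le_of_gt hH.1)

end Cfsg.Agent.Lib.Helper59.Asch9
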