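import Cfsg.Agent.Lib.Helper77.Asch.Final
import Cfsg.Agent.Lib.Helper5.AschC.PRK
import Cfsg.Agent.Lib.Helper59.Asch9.HProp
import Cfsg.Agent.Lib.Helper59.Asch9.PR8
import Cfsg.Agent.Lib.Helper59.Asch9.C6R

/-! Ladder ASCH9 (S5829): from the general dichotomy (`InLinearClass 9` or residual) to the list of
maximal subgroups of `SL_9(q)`. -/

set_option autoImplicit false

namespace Cfsg.Agent.Lib.Helper59.Asch9

open Cfsg Cfsg.Geo Cfsg.Agent.Lib.Helper77.Asch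
open scoped MatrixGroups Matrix

variable {n : ℕ} {F : Type*} [Field F]

theorem decomp_dim9 {t m : ℕ} (D : Fin t → Submodule F (Fin n → F)) (hD : IsMDecomposition m D) :
    t * m = n := by
  have hI : DirectSum.IsInternal D :=
    DirectSum.isInternal_submodule_of_iSupIndep_of_iSup_eq_top hD.indep hD.iSup_eq_top
  let b := hI.collectedBasis (fun i => Module.finBasisOfFinrankEq F (D i) (hD.finrank_eq i))
  have := Module.finrank_eq_card_basis b
  simpa using this.symm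

/-- arithmetic of the class-6 datum with `r = 3`. -/
theorem c6_three [Fintype F] (R : Subgroup (GL (Fin n) F)) (hR : IsLinearSymplecticTypeData 3 R) :
    ∃ p : ℕ, p.Prime ∧ CharP F p ∧ 3 ≠ p ∧ Fintype.card F = p ∧ p % 3 = 1 := by
  obtain ⟨p, e, hrp, ⟨hp, hch, hcard, hdvd, hmin⟩, hcase⟩ := hR.field
  rcases hcase with ⟨-, he, hz, -⟩ | ⟨h2, -⟩ | ⟨h2, -⟩
  · rw [hz] at hdvd hmin
    have hp3 : p % 3 = 1 ∨ p % 3 = 2 := by
      have h0 : p % 3 ≠ 0 := fun h => hrp ((Nat.prime_dvd_prime_iff_eq Nat.prime_three hp).1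
        (Nat.dvd_of_mod_eq_zero h))
      omega
    have hpe : p ^ e % 3 = 1 := by
      have h1 : 1 ≤ p ^ e := Nat.one_le_pow _ _ hp.pos
      omega
    have hp1 : p % 3 = 1 := by
      rcases hp3 with h | h
      · exact h
      · exfalso
        obtain ⟨k, rfl⟩ := he
        have h4 : p ^ (2 * k + 1) % 3 = 2 := by
          rw [pow_succ, pow_mul, Nat.mul_mod, Nat.pow_mod (p ^ 2), Nat.pow_mod p, h]
          norm_num
        omega
    have he1 : e = 1 := by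
      by_contra hne
      have h0 : 0 < e := he.pos
      have := hmin 1 one_pos (by omega)
      apply this
      rw [pow_one]
      have := hp.one_lt
      omega
    subst he1
    exact ⟨p, hp, hch, hrp, by rw [hcard, pow_one], hp1⟩
  · exact absurd h2 (by norm_num)
  · exact absurd h2 (by norm_num)

theorem cases9 [Fintype F] (H : Subgroup (GL (Fin 9) F))
    (hH : IsMaximalIn (specialLinear (Fin 9) F) H)
    (hA : (∃ M : Subgroup (GL (Fin 9) F), InLinearClass 9 F M ∧ H ≤ M) ∨ InLinearResidualClass H) :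
    (∃ W : Submodule F (Fin 9 → F), W ≠ ⊥ ∧ W ≠ ⊤ ∧ H = Cfsg.Geo.subspaceStabilizer W ⊓ Cfsg.Geo.specialLinear (Fin 9) F) ∨
    (5 ≤ Fintype.card F ∧ ∃ D : Fin 9 → Submodule F (Fin 9 → F), Cfsg.Geo.IsMDecomposition 1 D ∧ H = Cfsg.Geo.decompositionStabilizer D ⊓ Cfsg.Geo.specialLinear (Fin 9) F) ∨
    (∃ D : Fin 3 → Submodule F (Fin 9 → F), Cfsg.Geo.IsMDecomposition 3 D ∧ H = Cfsg.Geo.decompositionStabilizer D ⊓ Cfsg.Geo.specialLinear (Fin 9) F) ∨
    (∃ K : Subalgebra F (Matrix (Fin 9) (Fin 9) F), Cfsg.Geo.IsFieldSubalgebra 3 K ∧ H = Cfsg.Geo.subalgebraNormalizer K ⊓ Cfsg.Geo.specialLinear (Fin 9) F) ∨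
    (∃ (F₀ : Subfield F) (r : ℕ) (P : Matrix.GeneralLinearGroup (Fin 9) F), r.Prime ∧ Fintype.card F = Nat.card F₀ ^ r ∧ H = Cfsg.Geo.subfieldSubgroup F₀ P ⊓ Cfsg.Geo.specialLinear (Fin 9) F) ∨
    ((∃ p : ℕ, p.Prime ∧ Fintype.card F = p ∧ (p % 3 = 1)) ∧ ∃ R : Subgroup (Matrix.GeneralLinearGroup (Fin 9) F), Cfsg.Geo.IsLinearSymplecticTypeData 3 R ∧ H = Cfsg.Geo.subgroupNormalizer R ⊓ Cfsg.Geo.specialLinear (Fin 9) F) ∨
    (∃ (e : Fin 9 ≃ (Fin 2 → Fin 3)) (P : Matrix.GeneralLinearGroup (Fin 9) F), H = Cfsg.Geo.tensorWreathSubgroup 3 2 e P ⊓ Cfsg.Geo.specialLinear (Fin 9) F) ∨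
    (Odd (Fintype.card F) ∧ ∃ Q : (Fin 9 → F) → F, Cfsg.Geo.IsNondegenerateQuadraticForm Q ∧ H = Cfsg.Geo.quadSimilarityGroup Q ⊓ Cfsg.Geo.specialLinear (Fin 9) F) ∨
    (∃ (σ : F ≃+* F) (f : (Fin 9 → F) → (Fin 9 → F) → F), Cfsg.Geo.IsUnitaryForm σ f ∧ H = Cfsg.Geo.similarityGroup f ⊓ Cfsg.Geo.specialLinear (Fin 9) F) ∨
    Cfsg.Geo.InLinearResidualClass H := by
  have h3 : 3 ≤ 9 := by norm_num
  have caseW : ∀ W : Submodule F (Fin 9 → F), W ≠ ⊥ → W ≠ ⊤ → H ≤ subspaceStabilizer W →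
      ∃ W : Submodule F (Fin 9 → F), W ≠ ⊥ ∧ W ≠ ⊤ ∧ H = subspaceStabilizer W ⊓ specialLinear (Fin 9) F :=
    fun W h0 h1 hle => ⟨W, h0, h1, eq_of_le hH hle (not_le_subspace W h0 h1)⟩
  have caseQ : ∀ Q : (Fin 9 → F) → F, IsNondegenerateQuadraticForm Q → H ≤ quadSimilarityGroup Q →
      ∃ Q : (Fin 9 → F) → F, IsNondegenerateQuadraticForm Q ∧
        H = quadSimilarityGroup Q ⊓ specialLinear (Fin 9) F :=
    fun Q hQ hle => ⟨Q, hQ, eq_of_le hH hle (not_le_quadSim h3 Q hQ)⟩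
  have caseU : ∀ (σ : F ≃+* F) (f : (Fin 9 → F) → (Fin 9 → F) → F), IsUnitaryForm σ f →
      H ≤ similarityGroup f → ∃ (σ : F ≃+* F) (f : (Fin 9 → F) → (Fin 9 → F) → F), IsUnitaryForm σ f ∧
        H = similarityGroup f ⊓ specialLinear (Fin 9) F :=
    fun σ f hf hle => ⟨σ, f, hf, eq_of_le hH hle (not_le_unitarySim h3 σ f hf)⟩
  rcases hA with ⟨M, hM, hle⟩ | hres
  swap
  · exact Or.inr (Or.inr (Or.inr (Or.inr (Or.inr (Or.inr (Or.inr (Or.inr (Or.inr hres))))))))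
  rcases hM with ⟨W, h0, h1, rfl⟩ | ⟨W, U, h0, hWU, -, rfl⟩ | ⟨W, U, h0, hi, hs, hlt, rfl⟩ |
    ⟨t, m, D, hD, rfl⟩ | ⟨r, K, hr, hK, rfl⟩ | ⟨n₁, n₂, e, P, h2, hlt, rfl⟩ | ⟨F₀, r, P, hr, hc, rfl⟩ |
    ⟨r, R, hR, rfl⟩ | ⟨m, t, e, P, hm, ht, rfl⟩ | ⟨f, -, hev, -⟩ | ⟨σ, f, hf, -, rfl⟩ | ⟨Q, hQ, ho, -, rfl⟩
  · exact Or.inl (caseW W h0 h1 hle)
  · exact Or.inl (caseW W h0 (fun h => by rw [h] at hWU; exact not_top_lt hWU) (hle.trans inf_le_left))
  · refine Or.inl (caseW W h0 (fun h => ?_) (hle.trans inf_le_left))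
    rw [h, top_inf_eq] at hi
    rw [hi, finrank_bot] at hlt
    exact Nat.not_lt_zero _ hlt
  · have hdim := decomp_dim9 D hD
    have ht2 := hD.two_le
    have htd : t ∣ 9 := ⟨m, hdim.symm⟩
    have ht9 : t ≤ 9 := Nat.le_of_dvd (by norm_num) htd
    have hcases : (t = 9 ∧ m = 1) ∨ (t = 3 ∧ m = 3) := by
      interval_cases t <;> omega
    rcases hcases with ⟨rfl, rfl⟩ | ⟨rfl, rfl⟩
    · by_cases h5 : 5 ≤ Fintype.card F
      · exact Or.inr (Or.inl ⟨h5, D, hD, eq_of_le hH hle (not_le_decomp D hD)⟩)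
      · have h1 : 1 < Fintype.card F := Fintype.one_lt_card
        have hq : Fintype.card F = 2 ∨ Fintype.card F = 3 ∨ Fintype.card F = 4 := by omega
        rcases hq with hq | hq | hq
        · obtain ⟨W, h0, h1, hW⟩ := decomp_two (by norm_num) hq D hD
          exact Or.inl (caseW W h0 h1 (hle.trans hW))
        · obtain ⟨Q, hQ, hle'⟩ := decomp_three hq D hD
          exact Or.inr (Or.inr (Or.inr (Or.inr (Or.inr (Or.inr (Or.inr (Or.inl ⟨by rw [hq]; decide,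
            caseQ Q hQ (hle.trans hle')⟩)))))))
        · obtain ⟨σ, f, hf, hle'⟩ := decomp_four hq D hD
          exact Or.inr (Or.inr (Or.inr (Or.inr (Or.inr (Or.inr (Or.inr (Or.inr (Or.inl
            (caseU σ f hf (hle.trans hle'))))))))))
    · exact Or.inr (Or.inr (Or.inl ⟨D, hD, eq_of_le hH hle (not_le_decomp D hD)⟩))
  · have hd : r ∣ 9 := deg_dvd (by norm_num) r K hK
    have hr3 : r = 3 := by
      have : r ∣ 3 ^ 2 := by simpa using hd
      exact (Nat.prime_dvd_prime_iff_eq hr Nat.prime_three).1 (hr.dvd_of_dvd_pow this)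
    subst hr3
    exact Or.inr (Or.inr (Or.inr (Or.inl ⟨K, hK, eq_of_le hH hle
      (Cfsg.Agent.Lib.Helper5.AschC.not_le_fieldNormalizer' h3 3 (by norm_num) K hK)⟩)))
  · exfalso
    have hc := Fintype.card_congr e
    simp only [Fintype.card_fin, Fintype.card_prod] at hc
    have h1 : n₁ ∣ 9 := ⟨n₂, hc⟩
    have h9 : n₁ ≤ 9 := Nat.le_of_dvd (by norm_num) h1
    interval_cases n₁ <;> omega
  · exact Or.inr (Or.inr (Or.inr (Or.inr (Or.inl ⟨F₀, r, P, hr, hc,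
      eq_of_le hH hle (not_le_subfield (by norm_num) F₀ (subfield_ne_top F₀ r hr hc) P)⟩))))
  · have hd : r ∣ 9 := c6_dvd (by norm_num) r R hR
    have hr3 : r = 3 := by
      have : r ∣ 3 ^ 2 := by simpa using hd
      exact (Nat.prime_dvd_prime_iff_eq hR.symplecticType.prime Nat.prime_three).1
        (hR.symplecticType.prime.dvd_of_dvd_pow this)
    subst hr3
    obtain ⟨p, hp, hch, hne, hcard, hmod⟩ := c6_three R hR
    have hns : ¬ R ≤ scalars (Fin 9) F := fun h => not_irr_of_le_scalars (by norm_num) R h hR.absIrred.1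
    exact Or.inr (Or.inr (Or.inr (Or.inr (Or.inr (Or.inl ⟨⟨p, hp, hcard, hmod⟩, R, hR,
      eq_of_le hH hle (not_le_normalizer h3 3 p hp Nat.prime_three hne R hR.symplecticType.pGroup hns)⟩)))))
  · have hc := Fintype.card_congr e
    simp only [Fintype.card_fin, Fintype.card_pi, Finset.prod_const, Finset.card_univ] at hc
    have hmt : m = 3 ∧ t = 2 := by
      have hm9 : m ≤ 9 := by
        calc m = m ^ 1 := (pow_one m).symm
          _ ≤ m ^ t := Nat.pow_le_pow_right (by omega) (by omega)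
          _ = 9 := hc.symm
      have ht9 : t < 4 := by
        by_contra hcon
        have : 3 ^ 4 ≤ m ^ t := (Nat.pow_le_pow_left hm 4).trans (Nat.pow_le_pow_right (by omega) (by omega))
        omega
      interval_cases t <;> interval_cases m <;> first | exact ⟨rfl, rfl⟩ | (exfalso; norm_num at hc)
    obtain ⟨rfl, rfl⟩ := hmt
    exact Or.inr (Or.inr (Or.inr (Or.inr (Or.inr (Or.inr (Or.inl ⟨e, P,
      eq_of_le hH hle (not_le_tensorWreath (by norm_num) (by norm_num) e P)⟩))))))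
  · exact absurd hev (by decide)
  · exact Or.inr (Or.inr (Or.inr (Or.inr (Or.inr (Or.inr (Or.inr (Or.inr (Or.inl (caseU σ f hf hle)))))))))
  · exact Or.inr (Or.inr (Or.inr (Or.inr (Or.inr (Or.inr (Or.inr (Or.inl ⟨ho, caseQ Q hQ hle⟩)))))))

end Cfsg.Agent.Lib.Helper59.Asch9
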